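import Cfsg.Agent.Lib.Helper92.LeechCo3

set_option autoImplicit false

open scoped Pointwise

namespace Cfsg.Agent.Lib.Helper92

open Cfsg Cfsg.Spor Cfsg.Agent.Lib.Helper7

/-! ### An involution fixing two vectors of type 3 and none of the `100` vectors -/

/-- The mask of a dodecad. -/
def cM : ℕ := 28637

/-- The vector with entries `2` on the complement of the dodecad. -/
def vDL : List ℤ := [0, 2, 0, 0, 0, 2, 0, 0, 0, 0, 0, 0, 2, 0, 0, 2, 2, 2, 2, 2, 2, 2, 2, 2]

/-- A second vector on the complement of the dodecad. -/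
def wDL : List ℤ :=
  [0, 2, 0, 0, 0, 2, 0, 0, 0, 0, 0, 0, -2, 0, 0, -2, -2, -2, -2, -2, -2, -2, -2, -2]

theorem cM_mem : wordOf cM ∈ golayCode := by
  have h : enc 6 = cM := by decide +kernel
  rw [← h]
  exact wordOf_enc_mem 6

theorem vDL_mem : vecOf vDL ∈ leechLattice := leechB_sound (by decide +kernel)

theorem wDL_mem : vecOf wDL ∈ leechLattice := leechB_sound (by decide +kernel)

/-- The sign change at the dodecad. -/
noncomputable def epsCo : Co0 := ⟨signCo (wordOf cM) cM_mem, signCo_mem _ _⟩

theorem epsCo_coe (x : leechLattice) :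
    ((epsCo • x : leechLattice) : GolayPt → ℤ) = signVec (wordOf cM) (x : GolayPt → ℤ) := rfl

theorem epsCo_sq : epsCo * epsCo = 1 := by
  apply Subtype.ext
  apply Equiv.ext
  intro x
  exact Subtype.ext (signVec_signVec (wordOf cM) x.1)

theorem epsCo_vD : epsCo • (⟨vecOf vDL, vDL_mem⟩ : leechLattice) = ⟨vecOf vDL, vDL_mem⟩ := by
  apply Subtype.ext
  rw [epsCo_coe]
  show signVec (wordOf cM) (vecOf vDL) = vecOf vDL
  rw [signVec_vecOf]
  have h : signL cM vDL = vDL := by decide +kernel
  rw [h]

theorem epsCo_wD : epsCo • (⟨vecOf wDL, wDL_mem⟩ : leechLattice) = ⟨vecOf wDL, wDL_mem⟩ := by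
  apply Subtype.ext
  rw [epsCo_coe]
  show signVec (wordOf cM) (vecOf wDL) = vecOf wDL
  rw [signVec_vecOf]
  have h : signL cM wDL = wDL := by decide +kernel
  rw [h]

theorem epsCo_ne_one : epsCo ≠ 1 := by
  intro h
  have h1 : epsCo • (⟨vecEight (pt 0), vecEight_mem _⟩ : leechLattice) =
      ⟨vecEight (pt 0), vecEight_mem _⟩ := by rw [h, one_smul]
  have h2 := congrFun (congrArg Subtype.val h1) (pt 0)
  rw [epsCo_coe] at h2
  have h3 : wordOf cM (pt 0) = 1 := by
    unfold wordOf
    rw [idx_pt (by norm_num)]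
    have : cM.testBit 0 = true := by decide +kernel
    rw [if_pos this]
  simp only [signVec, sgn, h3, vecEight] at h2
  norm_num at h2

theorem vDL_vals (p : GolayPt) : vecOf vDL p = 0 ∨ vecOf vDL p = 2 := by
  have h : ∀ j < 24, vDL.getD j 0 = 0 ∨ vDL.getD j 0 = 2 := by decide +kernel
  exact h (idx p) (idx_lt p)

/-- No minimal vector with inner product `24` with the first vector is fixed. -/
theorem eps_no_fix {x : GolayPt → ℤ} (hx : x ∈ leechLattice) (hn : sqNorm x = 32)
    (hd : dotInt (vecOf vDL) x = 24) (hfix : signVec (wordOf cM) x = x) : False := by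
  have hz : ∀ p, wordOf cM p = 1 → x p = 0 := by
    intro p hp
    have := congrFun hfix p
    simp only [signVec, sgn, hp] at this
    norm_num at this
    omega
  have h3 : wordOf cM (pt 0) = 1 := by
    unfold wordOf
    rw [idx_pt (by norm_num)]
    have : cM.testBit 0 = true := by decide +kernel
    rw [if_pos this]
  have hx0 : x (pt 0) = 0 := hz _ h3
  by_cases ho : x none % 2 = 1
  · have := parity_of_mem hx (pt 0) none
    rw [hx0] at this
    omega
  · have he : x none % 2 = 0 := by omega
    by_cases h4 : ∀ i, x i % 4 = 0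
    · obtain ⟨i, j, hij, hi, hj, hrest⟩ := min_A hn h4
      have hsum : dotInt (vecOf vDL) x = vecOf vDL i * x i + vecOf vDL j * x j := by
        unfold dotInt
        rw [← sum_two hij]
        refine Finset.sum_congr rfl (fun p _ => ?_)
        by_cases h1 : p = i
        · rw [if_pos h1, h1]
        · rw [if_neg h1]
          by_cases h2 : p = j
          · rw [if_pos h2, h2]
          · rw [if_neg h2, hrest p h1 h2, mul_zero]
      rw [hsum] at hd
      rcases vDL_vals i with a | a <;> rcases vDL_vals j with b | b <;>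
        rcases hi with c | c <;> rcases hj with d | d <;> rw [a, b, c, d] at hd <;>
        norm_num at hd
    · obtain ⟨hoct, hval⟩ := min_B hx hn he h4
      have hb : bitWord x ∈ golayCode := by
        obtain ⟨m, -, -, hb⟩ := (mem_leechLattice_iff x).mp hx
        exact hb
      have hcard : (support₂ (bitWord x)).card = 8 := hoct.2
      have hcC : (support₂ (wordOf cM)).card = 12 := by
        rw [card_support₂_wordOf]
        decide +kernel
      have hdisj : Disjoint (support₂ (bitWord x)) (support₂ (wordOf cM)) := by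
        rw [Finset.disjoint_left]
        intro p hp hp'
        have h1 := (hval p).1 hp
        have h2 : wordOf cM p = 1 := by
          have h0 : ¬ wordOf cM p = 0 := by simpa [support₂] using hp'
          rcases zmod2_cases (wordOf cM p) with h | h
          · exact absurd h h0
          · exact h
        have h3 := hz p h2
        omega
      have hsum := card_support₂_of_mem (golayCode.add_mem hb cM_mem)
      rw [support₂_add, Disjoint.symmDiff_eq_sup hdisj] at hsum
      have hu : (support₂ (bitWord x) ⊔ support₂ (wordOf cM)).card = 20 := by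
        rw [Finset.sup_eq_union, Finset.card_union_of_disjoint hdisj, hcard, hcC]
      rw [hu] at hsum
      omega

/-- There is an involution fixing two vectors of type 3 with inner product `-32` and none of
the `100` minimal vectors with inner products `24` and `-24` with them. -/
theorem hs_invol (v w : leechLattice) (hv : sqNorm (v : GolayPt → ℤ) = 48)
    (hw : sqNorm (w : GolayPt → ℤ) = 48)
    (hvw : dotInt (v : GolayPt → ℤ) (w : GolayPt → ℤ) = -32) :
    ∃ g : Co0, g • v = v ∧ g • w = w ∧ orderOf g = 2 ∧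
      ∀ x ∈ {x : leechLattice | sqNorm (x : GolayPt → ℤ) = 32 ∧
        dotInt (v : GolayPt → ℤ) (x : GolayPt → ℤ) = 24 ∧
        dotInt (w : GolayPt → ℤ) (x : GolayPt → ℤ) = -24}, g • x ≠ x := by
  have h1 : sqNorm (vecOf vDL) = 48 := by
    rw [sqNorm_vecOf_dotL (by decide)]
    decide +kernel
  have h2 : sqNorm (vecOf wDL) = 48 := by
    rw [sqNorm_vecOf_dotL (by decide)]
    decide +kernel
  have h3 : dotInt (vecOf vDL) (vecOf wDL) = -32 := by
    rw [dotL_vecOf (by decide) (by decide)]
    decide +kernel
  obtain ⟨g₀, e1, e2⟩ := pair48_trans v w ⟨vecOf vDL, vDL_mem⟩ ⟨vecOf wDL, wDL_mem⟩ hv hw h1 h2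
    hvw h3
  refine ⟨g₀⁻¹ * epsCo * g₀, ?_, ?_, ?_, ?_⟩
  · rw [mul_smul, mul_smul, e1, epsCo_vD, ← e1, inv_smul_smul]
  · rw [mul_smul, mul_smul, e2, epsCo_wD, ← e2, inv_smul_smul]
  · have : Fact (Nat.Prime 2) := ⟨Nat.prime_two⟩
    apply orderOf_eq_prime
    · have : (g₀⁻¹ * epsCo * g₀) ^ 2 = g₀⁻¹ * (epsCo * epsCo) * g₀ := by
        rw [pow_two]
        group
      rw [this, epsCo_sq, mul_one, inv_mul_cancel]
    · intro h
      apply epsCo_ne_one
      have : epsCo = g₀ * (g₀⁻¹ * epsCo * g₀) * g₀⁻¹ := by group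
      rw [this, h, mul_one, mul_inv_cancel]
  · rintro x ⟨hx1, hx2, -⟩ hfix
    rw [mul_smul, mul_smul, inv_smul_eq_iff] at hfix
    have hfix' := congrArg Subtype.val hfix
    rw [epsCo_coe] at hfix'
    refine eps_no_fix (g₀ • x).2 ?_ ?_ hfix'
    · rw [co0_smul_sqNorm]
      exact hx1
    · have := co0_smul_dotInt g₀ v x
      rw [e1] at this
      exact this.trans hx2

end Cfsg.Agent.Lib.Helper92
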